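import Cfsg.Agent.H883.C7.NIface

/-!
# The tensor wreath group does not contain `E (QT q ι)`
-/

set_option autoImplicit false
set_option linter.unusedSectionVars false

namespace Cfsg.Agent.H161.C7

open QuadraticMap hiding proj
open Cfsg.Agent.LieClassical.OrthCore Cfsg.Agent.LieClassical.OrthTrans
open Cfsg.Agent.H882.Ten Cfsg.Agent.LieClassical.OrthFinite
open Cfsg.Agent.H883.C7

variable {F : Type*} [Field F] {κ : Type*} [Fintype κ] [DecidableEq κ] {ι : Type*} [Fintype ι] [DecidableEq ι]

/-- If `g` carries slot `i` to slot `j` then it carries `A_i ⊗ a` into some `A_j ⊗ y`. -/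
theorem carries_line {q : QuadraticForm F (κ → F)} (H : Hyp7 q) {g : ((ι → κ) → F) ≃ₗ[F] ((ι → κ) → F)} {i j : ι}
    (hg : Carries g i j) {a b : κ → F} (hyp : Hyp q a b) :
    ∃ f' : Module.End F (κ → F), (∀ (x : ι → (κ → F)), x i = a → sl j f' (g (tp x)) = g (tp x)) ∧
      ∃ y : κ → F, ∀ u, ∃ c : F, f' u = c • y := by
  classical
  let f : Module.End F (κ → F) := (polarBilin q b).smulRight a
  have hf : ∀ v, f v = polar q b v • a := fun v => rfl
  obtain ⟨f', hf'⟩ := hg f
  refine ⟨f', ?_, ?_⟩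
  · intro x hx
    rw [← hf', sl_tp, hx, hf, hyp.pair', one_smul, ← hx, Function.update_eq_self]
  · have S := tst (ι := ι) H.two H.nd i
    have hT := isTen F κ j
    -- everything in the image of `sl i f` is `a' ⊗ a`
    have him : ∀ v, ∃ a', sl i f v = ten F κ i a' a := by
      intro v
      refine ⟨S.cw b v, ?_⟩
      have : sl i f = (ten F κ i).flip a ∘ₗ S.cw b := ext_t (isTen F κ i) fun u w => by
        rw [sl_ten, LinearMap.comp_apply, S.cw_t, hf, map_smul, LinearMap.flip_apply, map_smul,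
          LinearMap.smul_apply]
      rw [this]
      rfl
    by_contra hcon
    push Not at hcon
    obtain ⟨u1, hu1⟩ := hcon 0
    have h1 : f' u1 ≠ 0 := by simpa using hu1 0
    obtain ⟨u2, hu2⟩ := hcon (f' u1)
    -- the injective map
    let L : ((({l // l ≠ j} → κ) → F) × (({l // l ≠ j} → κ) → F)) →ₗ[F] (({l // l ≠ i} → κ) → F) :=
      S.cw b ∘ₗ (g.symm : ((ι → κ) → F) →ₗ[F] ((ι → κ) → F)) ∘ₗ
        (LinearMap.coprod ((ten F κ j).flip (f' u1)) ((ten F κ j).flip (f' u2)))
    have hL : ∀ p, L p = S.cw b (g.symm (ten F κ j p.1 (f' u1) + ten F κ j p.2 (f' u2))) := fun p => rfl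
    have hinj : Function.Injective L := by
      rw [← LinearMap.ker_eq_bot, LinearMap.ker_eq_bot']
      rintro ⟨p1, p2⟩ hp
      rw [hL] at hp
      have h3 : ten F κ j p1 (f' u1) + ten F κ j p2 (f' u2) =
          sl j f' (ten F κ j p1 u1 + ten F κ j p2 u2) := by
        rw [map_add, sl_ten, sl_ten]
      have h4 : g.symm (sl j f' (ten F κ j p1 u1 + ten F κ j p2 u2)) =
          sl i f (g.symm (ten F κ j p1 u1 + ten F κ j p2 u2)) := by
        rw [LinearEquiv.symm_apply_eq, hf', LinearEquiv.apply_symm_apply]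
      obtain ⟨a', ha'⟩ := him (g.symm (ten F κ j p1 u1 + ten F κ j p2 u2))
      have h5 : a' = 0 := by
        have h6 := hp
        simp only at h6
        rw [h3, h4, ha', S.cw_t, hyp.pair', one_smul] at h6
        exact h6
      have h7 : ten F κ j p1 (f' u1) + ten F κ j p2 (f' u2) = 0 := by
        rw [h3]
        have := h4
        rw [ha', h5, map_zero, LinearMap.zero_apply, LinearEquiv.symm_apply_eq, map_zero] at this
        exact this
      -- contraction with a form vanishing on `f' u1`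
      obtain ⟨φ, hφ1, hφ2⟩ := exists_ne_of_ne (F := F) (u := f' u1) (u' := f' u2) hu2
      have h8 := congrArg (cW hT φ) h7
      rw [map_add, cW_apply, cW_apply, hφ1, zero_smul, zero_add, map_zero] at h8
      have hp2 : p2 = 0 := (smul_eq_zero.1 h8).resolve_left hφ2
      rw [hp2, map_zero, LinearMap.zero_apply, add_zero] at h7
      have hp1 : p1 = 0 := eq_zero_of_t hT h7 h1
      rw [hp1, hp2]
      rfl
    have hle := LinearMap.finrank_le_finrank_of_injective hinj
    rw [Module.finrank_prod, Module.finrank_fintype_fun_eq_card, Module.finrank_fintype_fun_eq_card,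
      Fintype.card_fun, Fintype.card_fun] at hle
    have hc : Fintype.card {l // l ≠ j} = Fintype.card {l // l ≠ i} := by
      rw [Fintype.card_subtype_compl, Fintype.card_subtype_compl]
      simp
    rw [hc] at hle
    have hpos : 0 < Fintype.card κ ^ Fintype.card {l // l ≠ i} :=
      Nat.pow_pos (by have := H.three; omega)
    omega

theorem exists_not_carries_slot [Finite F] {q : QuadraticForm F (κ → F)} (H : Hyp7 q) (ht : 2 ≤ Fintype.card ι) :
    ∃ g ∈ E (QT q ι), ∃ i, ∀ j, ¬ Carries g i j := by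
  classical
  have hd : 3 ≤ Module.finrank F (κ → F) := by rw [Module.finrank_fintype_fun_eq_card]; exact H.three
  obtain ⟨a, ha0, ha, -⟩ := exists_sing_perp (Q := q) (n := 0) ![] (by omega)
  obtain ⟨b, hyp⟩ := LieClassical.OrthTrans.exists_hyp H.nd ha ha0
  obtain ⟨z, haz, hbz, hz⟩ := exists_nonsing_perp H.nd hd hyp
  have hcard : 1 < Fintype.card ι := by omega
  obtain ⟨i0, j0, hij⟩ := Fintype.one_lt_card_iff.1 hcard
  let x : ι → (κ → F) := fun l => if l = i0 then b else z
  have hx0 : x i0 = b := if_pos rfl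
  have hxn : ∀ {l}, l ≠ i0 → x l = z := fun h => if_neg h
  have hne : ∀ l : ι, ∃ l', l' ≠ l := by
    intro l
    by_cases h : l = i0
    · exact ⟨j0, by rw [h]; exact hij.symm⟩
    · exact ⟨i0, fun h' => h h'.symm⟩
  let w : (ι → κ) → F := tp (fun _ => a) + tp x
  have G := H.good ht
  -- facts on the entries of `x`
  have hbx : ∀ l, polar q b (x l) = 0 := by
    intro l
    by_cases h : l = i0
    · rw [h, hx0, hyp.polar_right]
    · rw [hxn h, hbz]
  have hxna : ∀ l (c : F), x l ≠ c • a := by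
    intro l c hc
    by_cases h : l = i0
    · rw [h, hx0] at hc
      have := hyp.pair
      rw [hc, polar_smul_right, hyp.polar_left, smul_zero] at this
      exact zero_ne_one this
    · rw [hxn h] at hc
      rw [hc, QuadraticMap.map_smul, ha, smul_zero] at hz
      exact hz rfl
  let x' : ι → (κ → F) := fun l => if l = i0 then a else z
  have hxx' : ∀ l, polar q (x' l) (x l) ≠ 0 := by
    intro l
    by_cases h : l = i0
    · have : x' l = a := if_pos h
      rw [this, h, hx0, hyp.pair]
      exact one_ne_zero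
    · have : x' l = z := if_neg h
      rw [this, hxn h, polar_self']
      exact mul_ne_zero H.two hz
  -- decomposition at `j`
  have hdec : ∀ j, w = ten F κ j (tp fun _ => a) a + ten F κ j (tp fun l => x l) (x j) := by
    intro j
    show tp (fun _ => a) + tp x = _
    rw [tp_eq_ten j (fun _ => a), tp_eq_ten j x]
  -- impurity
  have hnp : ∀ j a' (y : κ → F), w ≠ ten F κ j a' y := by
    intro j a' y hw
    have S := tst (ι := ι) H.two H.nd j
    rw [hdec j] at hw
    obtain ⟨j', hj'⟩ := hne j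
    have h1 := congrArg (S.cu (tp fun _ => b)) hw
    rw [map_add, S.cu_t, S.cu_t, S.cu_t, polar_tp H.two, polar_tp H.two,
      Finset.prod_eq_one (fun l _ => hyp.pair'), one_smul,
      Finset.prod_eq_zero (Finset.mem_univ (⟨j', hj'⟩ : {l // l ≠ j})) (hbx j'), zero_smul, add_zero] at h1
    have h3 := congrArg (S.cu (tp fun l => x' l)) hw
    rw [map_add, S.cu_t, S.cu_t, S.cu_t, polar_tp H.two _ (fun l : {l // l ≠ j} => x l)] at h3
    have hpr : ∏ l : {l // l ≠ j}, polar q (x' l) (x l) ≠ 0 := Finset.prod_ne_zero_iff.2 fun l _ => hxx' l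
    -- `y` is a multiple of `a`
    set c1 := polar (QT q {l // l ≠ j}) (tp fun _ => b) a' with hc1
    have hc1' : c1 ≠ 0 := by
      intro h
      rw [h, zero_smul] at h1
      exact ha0 h1
    have hy : y = c1⁻¹ • a := by rw [h1, smul_smul, inv_mul_cancel₀ hc1', one_smul]
    rw [hy] at h3
    set c2 := ∏ l : {l // l ≠ j}, polar q (x' l) (x l)
    refine hxna j (c2⁻¹ * (polar (QT q {l // l ≠ j}) (tp fun l => x' l) a' * c1⁻¹ -
      polar (QT q {l // l ≠ j}) (tp fun l => x' l) (tp fun _ => a))) ?_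
    rw [smul_smul] at h3
    rw [mul_smul, sub_smul, ← h3, add_sub_cancel_left, smul_smul, inv_mul_cancel₀ hpr, one_smul]
  have hw0 : w ≠ 0 := by
    intro h
    refine hnp i0 0 0 ?_
    rw [h, map_zero]
  have hwQ : QT q ι w = 0 := by
    have h1 : QT q ι (tp fun _ => a) = 0 := by
      rw [Q_zero_iff H.two, polar_tp H.two]
      exact Finset.prod_eq_zero (Finset.mem_univ i0) hyp.polar_left
    have h3 : QT q ι (tp x) = 0 := by
      rw [Q_zero_iff H.two, polar_tp H.two]
      exact Finset.prod_eq_zero (Finset.mem_univ i0) (by rw [hx0]; exact hyp.polar_right)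
    have h4 : polar (QT q ι) (tp fun _ => a) (tp x) = 0 := by
      rw [polar_tp H.two]
      exact Finset.prod_eq_zero (Finset.mem_univ j0) (by rw [hxn hij.symm]; exact haz)
    show QT q ι (tp (fun _ => a) + tp x) = 0
    rw [Q_add, h1, h3, h4]
    simp
  have haQ : QT q ι (tp fun _ => a) = 0 := by
    rw [Q_zero_iff H.two, polar_tp H.two]
    exact Finset.prod_eq_zero (Finset.mem_univ i0) hyp.polar_left
  obtain ⟨g, hg, hgw⟩ := G.trans_sing haQ hwQ (tp_ne_zero fun _ => ha0) hw0
  refine ⟨g, hg, i0, fun j hc => ?_⟩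
  obtain ⟨f', h1, y, hy⟩ := carries_line H hc hyp
  have h3 := h1 (fun _ => a) rfl
  rw [hgw] at h3
  obtain ⟨c1, hc1⟩ := hy a
  obtain ⟨c2, hc2⟩ := hy (x j)
  refine hnp j (c1 • (tp fun _ : {l // l ≠ j} => a) + c2 • (tp fun l : {l // l ≠ j} => x l)) y ?_
  conv_lhs => rw [← h3, hdec j]
  rw [map_add, sl_ten, sl_ten, hc1, hc2, map_smul, map_smul, map_add, LinearMap.add_apply, map_smul, map_smul,
    LinearMap.smul_apply, LinearMap.smul_apply]

/-- The form asked for. -/
theorem exists_not_carries [Finite F] {q : QuadraticForm F (κ → F)} (H : Hyp7 q) (ht : 2 ≤ Fintype.card ι)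
    (_hn : 13 ≤ Fintype.card κ ^ Fintype.card ι) :
    ∃ g ∈ E (QT q ι), ¬ ∀ i, ∃ j, Carries g i j := by
  obtain ⟨g, hg, i, hi⟩ := exists_not_carries_slot (ι := ι) H ht
  refine ⟨g, hg, fun h => ?_⟩
  obtain ⟨j, hj⟩ := h i
  exact hi j hj

end Cfsg.Agent.H161.C7
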